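import Cfsg.Agent.Lib.PU.Embed
import Cfsg.Agent.Lib.PLocal.QdOver
import Cfsg.Agent.Lib.Coprime.Gaschutz
import Cfsg.Prelude.Def_TwoFusion

/-!
# Pushing up: recognition of `Qd`
-/

set_option autoImplicit false

namespace Cfsg.Lib.PU

open Subgroup Cfsg.Lib.BG Cfsg.Lib.Transfer Cfsg.Lib.Loc Cfsg.Lib.PLocal Cfsg.Lib.Root Matrix
open scoped commutatorElement MatrixGroups

variable {G : Type*} [Group G] {p : ℕ} {T M X W A P V Z : Subgroup G} {F : Type*} [Field F]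

local notation "𝐐" => pCoreOf p
local notation "𝐘" X:max => omegaOneCenter p (pCoreOf p X)

theorem ns_qd (n : NatSec F X V Z) (h2 : (2 : F) ≠ 0) (hV : V ≤ 𝐂(V)) (hZ : Z ≤ 𝐂(X))
    (hk : ∀ l, n.ρ l = 1 ↔ (l : G) ∈ V) (hX : V ≤ X) :
    (∃ Φ : X →* qdOver F, Function.Surjective Φ ∧ ∀ x, Φ x = 1 ↔ (x : G) ∈ Z) ∧
      ∃ W ≤ V, X ≤ 𝐍(W) ∧ W ⊓ Z = ⊥ ∧ V ≤ W ⊔ Z := by
  obtain ⟨t, ht⟩ := n.ρ_surj (-1)
  have h0 : ∀ w : Fin 2 → F, (1 : SL(2, F)).1 *ᵥ w = w := one_mulVec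
  have h1 : ∀ x : X, ⁅(t : G), (x : G)⁆ ∈ V := fun x => (hk ⁅t, x⁆).1 (by
    rw [map_commutatorElement, ht, commutatorElement_def]; simp)
  have h3 : ∀ v ∈ V, n.ψ ⁅(t : G), v⁆ = (-2 : F) • n.ψ v := fun v hv => by
    rw [n.map_commutator t hv, ht, SpecialLinearGroup.coe_neg, neg_mulVec, h0,
      neg_smul, two_smul, neg_add, sub_eq_add_neg]
  have h4 : ∀ v ∈ V, ⁅(t : G), v⁆ ∈ Z → v ∈ Z := fun v hv e => (n.ker v hv).1
    ((smul_eq_zero.1 ((h3 v hv).symm.trans ((n.ker _ (h1 ⟨v, hX hv⟩)).2 e))).resolve_left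
      (neg_ne_zero.2 h2))
  have h5 : ∀ w, ∃ v ∈ V, n.ψ ⁅(t : G), v⁆ = w := fun w => (n.surj ((-2 : F)⁻¹ • w)).imp
    fun v hv => ⟨hv.1, by rw [h3 v hv.1, hv.2, smul_inv_smul₀ (neg_ne_zero.2 h2)]⟩
  have h6 : ∀ z ∈ Z, ⁅(t : G), z⁆ = 1 := fun z hz =>
    commutatorElement_eq_one_iff_mul_comm.2 (hZ hz t t.2)
  have h7 : ∀ x y : G, ⁅(t : G), x * y⁆ = ⁅(t : G), x⁆ * (x * ⁅(t : G), y⁆ * x⁻¹) := fun x y => by
    simp only [commutatorElement_def]; group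
  let δ : V →* G := MonoidHom.mk' (fun v => ⁅(t : G), (v : G)⁆) fun v w => by
    rw [coe_mul, h7, hV (h1 ⟨w, hX w.2⟩) v v.2, mul_inv_cancel_right]
  refine ⟨⟨MonoidHom.mk' (fun x => QdF.elt (n.ρ x) (n.ψ ⁅(t : G), (x : G)⁆)) fun x y => ?_,
    fun g => ?_, fun x => ⟨fun e => ?_, fun e => ?_⟩⟩, δ.range, ?_, le_norm_iff.2 ?_, ?_,
      fun v hv => ?_⟩
  · rw [QdF.elt_mul, map_mul, coe_mul, h7, n.add _ (h1 x) _ (n.conj_mem x (h1 y)), n.conj x _ (h1 y)]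
  · obtain ⟨B, w, rfl⟩ := QdF.exists_elt g
    obtain ⟨x, rfl⟩ := n.ρ_surj B
    obtain ⟨v, hv, e⟩ := h5 (w - n.ψ ⁅(t : G), (x : G)⁆)
    refine ⟨⟨v, hX hv⟩ * x, (map_mul _ _ _).trans ?_⟩
    simp only [MonoidHom.mk'_apply]
    rw [QdF.elt_mul, (hk ⟨v, hX hv⟩).2 hv, one_mul, e, h0, sub_add_cancel]
  · obtain ⟨e1, e2⟩ := QdF.elt_inj (e.trans QdF.elt_one.symm)
    exact h4 _ ((hk x).1 e1) ((n.ker _ (h1 x)).1 e2)
  · rw [MonoidHom.mk'_apply, (hk x).2 (n.le e), h6 _ e, n.map_one, QdF.elt_one]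
  · rintro _ ⟨v, rfl⟩; exact h1 ⟨v, hX v.2⟩
  · rintro x hx _ ⟨v, rfl⟩
    have h8 := n.conj_mem ⟨x, hx⟩ v.2
    refine ⟨⟨_, h8⟩, Eq.symm ?_⟩
    rw [show x * δ v * x⁻¹ = ⁅(t : G), x⁆⁻¹ * (t * (x * v * x⁻¹) * (t : G)⁻¹ * ⁅(t : G), x⁆) *
      (x * v * x⁻¹)⁻¹ by simp only [δ, MonoidHom.mk'_apply, commutatorElement_def]; group,
      ← hV (n.conj_mem t h8) _ (h1 ⟨x, hx⟩), inv_mul_cancel_left]
    rfl
  · refine eq_bot_iff.2 ?_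
    rintro _ ⟨⟨v, rfl⟩, hv⟩
    exact h6 _ (h4 _ v.2 hv)
  · obtain ⟨u, hu, e⟩ := h5 (n.ψ v)
    rw [← mul_inv_cancel_left ⁅(t : G), u⁆ v]
    refine mul_mem (mem_sup_left ⟨⟨u, hu⟩, rfl⟩) (mem_sup_right ((n.ker _ (mul_mem (inv_mem
      (h1 ⟨u, hX hu⟩)) hv)).1 ?_))
    rw [n.add _ (inv_mem (h1 ⟨u, hX hu⟩)) _ hv, n.map_inv (h1 ⟨u, hX hu⟩), e, neg_add_cancel]

variable [Finite G] [hp : Fact p.Prime]

theorem Cfg1.qd [Finite F] (h : Cfg1 p T X A P) (hp2 : p ≠ 2) (hQ : ⁅𝐐 X, 𝐐 X⁆ = ⊥)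
    (hF : (𝐐 X).relIndex T = Nat.card F) : ∃ G₀ E : Subgroup G, IsInternalDirectProduct G₀ E X ∧
      IsElementaryAbelian p E ∧ Nonempty (G₀ ≃* qdOver F) := by
  obtain ⟨_, n, -⟩ := h.ff.natSec' hF
  have hT := h.ff.syl
  have h1 : 𝐐 X ≤ 𝐘 X := le_oz ⟨abelian_iff_der.2 hQ, fun x hx => h.pow_p hp2 x (h.ff.core_le hx)⟩
    le_rfl (comm_eq_bot_iff.1 hQ)
  have hY := (oz_le (p := p) _).trans (Loc.core_le p X)
  obtain ⟨⟨Φ, h2, h3⟩, W, h4, h5, h6, h7⟩ := ns_qd n (fun e => hp2 ((Nat.prime_dvd_prime_iff_eq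
    hp.out Nat.prime_two).1 ((CharP.cast_eq_zero_iff F p 2).1 e))) (abelian_iff.1 (oz_elemAb _).1)
    inf_le_right (fun l => (h.rho_eq_one_iff n l).trans ⟨fun e => h1 e, fun e => oz_le _ e⟩) hY
  set Z := 𝐘 X ⊓ 𝐂(X)
  have hZ : IsElementaryAbelian p Z := PGroup.elemAb_of_le (oz_elemAb _) inf_le_left
  have hZT : Z ≤ T := inf_le_left.trans h.ff.Y_le
  have hA : IsElementaryAbelian p (A ⊔ Z : Subgroup G) := PGroup.elemAb_sup h.elem hZ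
    (cent_symm (inf_le_right.trans (cent_anti (h.le.trans hT.1))))
  obtain ⟨C, h8, h9, h10⟩ := PGroup.elemAb_exists_complement hA (B := (A ⊔ Z) ⊓ W ⊔ Z)
    (sup_le inf_le_left le_sup_right)
  have hC : C ≤ T := h8.trans (sup_le h.le hZT)
  obtain ⟨G₀, h11, h12, h13⟩ := Coprime.gaschutz_exists_of (M := X) (A := C ⊔ W) hZ.1 hZT hT.1
    (norm_of_cent (cent_symm inf_le_right)) (by
      obtain ⟨k, hk⟩ := IsPGroup.iff_card.1 (hT.2.1.to_le hZT)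
      exact hk ▸ ((Nat.Prime.coprime_iff_not_dvd hp.out).2 hT.2.2).pow_left k)
    (eq_bot_iff.2 fun z ⟨hz, hz'⟩ => by
      obtain ⟨c, hc, w, hw, rfl⟩ := (mem_sup_right_norm ((hC.trans hT.1).trans h5)).1 hz'
      have h14 : w ∈ A ⊔ Z := (mul_mem_cancel_left (h8 hc)).1 (mem_sup_right hz)
      obtain rfl : c = 1 := h9.le ⟨(mul_mem_cancel_right (mem_sup_left (mem_inf.2 ⟨h14, hw⟩))).1
        (mem_sup_right hz), hc⟩
      rw [one_mul] at hz ⊢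
      exact h6.le ⟨hw, hz⟩)
    (le_antisymm (sup_le hZT (sup_le hC (h4.trans h.ff.Y_le))) (h.supA.trans (sup_le
      ((le_sup_left.trans h10.ge).trans (sup_le (sup_le (inf_le_right.trans (le_sup_of_le_right
        le_sup_right)) le_sup_left) (le_sup_of_le_right le_sup_left)))
      ((h1.trans h7).trans (sup_le (le_sup_of_le_right le_sup_right) le_sup_left)))))
  refine ⟨G₀, Z, ⟨h11, inf_le_left.trans hY, fun a ha b hb => hb.2 a (h11 ha), inf_comm Z G₀ ▸ h12,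
    sup_comm Z G₀ ▸ h13⟩, hZ, ⟨MulEquiv.ofBijective (Φ.comp (inclusion h11)) ⟨(injective_iff_map_eq_one
      _).2 fun g hg => Subtype.ext (h12.le ⟨(h3 _).1 hg, g.2⟩), fun y => ?_⟩⟩⟩
  obtain ⟨x, rfl⟩ := h2 y
  obtain ⟨z, hz, g, hg, e⟩ := (mem_sup_left_norm (h11.trans (norm_of_cent (cent_symm
    inf_le_right)))).1 (h13.ge x.2)
  refine ⟨⟨g, hg⟩, ?_⟩
  rw [show x = ⟨z, hY hz.1⟩ * ⟨g, h11 hg⟩ from Subtype.ext e.symm, map_mul, (h3 _).2 hz, one_mul]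
  rfl

/-- A maximal `p`-local subgroup which cannot be pushed up. -/
theorem Am.qd [Finite F] (h : Am p T X) (hp5 : 5 ≤ p)
    (hmax : ∀ R : Subgroup G, IsPGroup p R → R ≠ ⊥ → X ≤ 𝐍(R) → 𝐍(R) = X)
    (hF : (𝐐 X).relIndex T = Nat.card F) : ∃ G₀ E : Subgroup G, IsInternalDirectProduct G₀ E X ∧
      IsElementaryAbelian p E ∧ Nonempty (G₀ ≃* qdOver F) := by
  rcases h.cfg with ⟨W, ⟨g, hg⟩, c, d⟩ | ⟨A, P, U, c⟩
  · refine c.qd (by omega) (by_contra fun e => c.not_le ?_) hF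
    have h1 : ⁅𝐐 X, 𝐐 X⁆ = ⁅𝐐 W, 𝐐 W⁆ := le_antisymm
      (c.der_le.trans (commutator_mono inf_le_left inf_le_left))
      (d.der_le.trans (commutator_mono inf_le_left inf_le_left))
    have h2 := hmax _ ((core_pgroup p X).to_le (BG.der_le _)) e (norm_der (le_normalizer_core p X))
    rw [eq_of_le_of_card_le (A := W) (B := X) (h2 ▸ h1 ▸ norm_der (le_normalizer_core p W))
      (by rw [← hg, card_conj])]
    exact oz_le _
  · have hT := h.syl.1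
    have e : ∀ {H : Subgroup G}, H ≤ X → (H.subgroupOf X).map X.subtype = H :=
      map_subgroupOf_eq_of_le
    have hP := c.leP.trans hT
    have := (Cfg2.of_map (T := T.subgroupOf X) (X := ⊤) (A := A.subgroupOf X) (P := P.subgroupOf X)
      (U := U.subgroupOf X) X.subtype_injective (by
        rwa [e hT, e (c.leAP.trans hP), e hP, e (c.leU.trans hP), Core.map_subtype_top])).chief.1
    omega

end Cfsg.Lib.PU
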